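import Cfsg.Agent.H145.BR.Count
import Cfsg.Agent.Characters.GaloisIrr

/-!
# Restriction of permutation characters with the same orbitals (helper145, S4829)

`f : H →* G`, `Φ` a character of `G` with `[Φ ∘ f, Φ ∘ f]_H = [Φ, Φ]_G`. Then the constituents of `Φ` restrict to
different irreducible characters of `H` (`rest_of_norm`). For a permutation character the condition says that `H` and
`G` have the same orbits on pairs (`norm_perm`).
-/

set_option autoImplicit false
set_option linter.unusedSectionVars false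

open Subgroup
open scoped ComplexConjugate

namespace Cfsg.Agent.H145.CY

open Cfsg Cfsg.Agent.H145.BR
open Cfsg.Agent.Characters

universe u v w

section norm

variable {G : Type u} [Group G] [Fintype G] {H : Type v} [Group H] [Fintype H] (f : H →* G)

/-- the constituents of `Φ` restrict to different irreducible characters -/
theorem rest_of_norm {Φ : G → ℂ} (hΦ : IsCharacter G Φ)
    (hn : classInner (fun h : H => Φ (f h)) (fun h : H => Φ (f h)) = classInner Φ Φ) (χ ψ : IrrCharacter G)
    (hχ : classInner Φ (χ : G → ℂ) ≠ 0) (hψ : classInner Φ (ψ : G → ℂ) ≠ 0) :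
    (χ = ψ → classInner (fun h : H => (χ : G → ℂ) (f h)) (fun h : H => (ψ : G → ℂ) (f h)) = 1) ∧
      (χ ≠ ψ → classInner (fun h : H => (χ : G → ℂ) (f h)) (fun h : H => (ψ : G → ℂ) (f h)) = 0) := by
  classical
  have := Core.finite_irr (G := G)
  have := Fintype.ofFinite (IrrCharacter G)
  obtain ⟨m, hm⟩ := Core.isCharacter_iff.1 hΦ
  have hmul : ∀ χ : IrrCharacter G, classInner Φ (χ : G → ℂ) = (m χ : ℂ) := by
    intro χ
    rw [hm, Core.classInner_sum_nsmul_irr]
  have hnat : ∀ (χ ψ : IrrCharacter G), ∃ n : ℕ,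
      classInner (fun h : H => (χ : G → ℂ) (f h)) (fun h : H => (ψ : G → ℂ) (f h)) = n := fun χ ψ =>
    Core.classInner_isNat (Core.isCharacter_comp f (Core.isIrr_isCharacter χ.2))
      (Core.isCharacter_comp f (Core.isIrr_isCharacter ψ.2))
  choose r hr using hnat
  have hf : (fun h : H => Φ (f h)) = ∑ χ : IrrCharacter G, (m χ : ℂ) • (fun h : H => (χ : G → ℂ) (f h)) := by
    funext h
    rw [Finset.sum_apply]
    conv_lhs => rw [hm]
    rw [Finset.sum_apply]
    refine Finset.sum_congr rfl fun χ _ => ?_
    rw [Pi.smul_apply, Pi.smul_apply, nsmul_eq_mul, smul_eq_mul]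
  have h1 : classInner (fun h : H => Φ (f h)) (fun h : H => Φ (f h)) =
      ((∑ χ : IrrCharacter G, ∑ ψ : IrrCharacter G, m χ * m ψ * r χ ψ : ℕ) : ℂ) := by
    rw [hf, Core.classInner_sum_left, Nat.cast_sum]
    refine Finset.sum_congr rfl fun χ _ => ?_
    rw [Core.classInner_sum_right, Nat.cast_sum]
    refine Finset.sum_congr rfl fun ψ _ => ?_
    rw [Core.classInner_smul_left, Core.classInner_smul_right, hr, Complex.conj_natCast]
    push_cast
    ring
  have h2 : classInner Φ Φ = ((∑ χ : IrrCharacter G, ∑ ψ : IrrCharacter G, if χ = ψ then m χ * m χ else 0 : ℕ) : ℂ) := by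
    have h3 : classInner Φ Φ = ∑ χ : IrrCharacter G, (m χ : ℂ) * (m χ : ℂ) := by
      conv_lhs => rw [hm]
      rw [Core.classInner_sum_left]
      refine Finset.sum_congr rfl fun χ _ => ?_
      rw [← Nat.cast_smul_eq_nsmul ℂ, Core.classInner_smul_left, ← Core.classInner_conj_symm,
        Core.classInner_sum_nsmul_irr, Complex.conj_natCast]
    rw [h3, Nat.cast_sum]
    refine Finset.sum_congr rfl fun χ _ => ?_
    rw [Finset.sum_ite_eq, if_pos (Finset.mem_univ _), Nat.cast_mul]
  have h3 : ∑ χ : IrrCharacter G, ∑ ψ : IrrCharacter G, (if χ = ψ then m χ * m χ else 0) =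
      ∑ χ : IrrCharacter G, ∑ ψ : IrrCharacter G, m χ * m ψ * r χ ψ := by
    have := h2.symm.trans (hn.symm.trans h1)
    exact_mod_cast this
  have hpos : ∀ χ : IrrCharacter G, 1 ≤ r χ χ := by
    intro χ
    rcases Nat.eq_zero_or_pos (r χ χ) with h | h
    · exfalso
      have h4 := hr χ χ
      rw [h, Nat.cast_zero] at h4
      have h5 := congrFun (Core.classInner_self_eq_zero h4) 1
      simp only [map_one, Pi.zero_apply] at h5
      exact Core.isIrr_apply_one_ne_zero χ.2 h5
    · exact h
  have hle : ∀ χ ψ : IrrCharacter G, (if χ = ψ then m χ * m χ else 0) ≤ m χ * m ψ * r χ ψ := by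
    intro χ ψ
    split_ifs with h
    · subst h
      exact Nat.le_mul_of_pos_right _ (hpos χ)
    · exact Nat.zero_le _
  have h4 : ∀ χ ψ : IrrCharacter G, (if χ = ψ then m χ * m χ else 0) = m χ * m ψ * r χ ψ := by
    intro χ ψ
    have h5 := (Finset.sum_eq_sum_iff_of_le (s := Finset.univ)
      (f := fun χ : IrrCharacter G => ∑ ψ : IrrCharacter G, (if χ = ψ then m χ * m χ else 0))
      (g := fun χ : IrrCharacter G => ∑ ψ : IrrCharacter G, m χ * m ψ * r χ ψ)
      fun χ _ => Finset.sum_le_sum fun ψ _ => hle χ ψ).1 h3 χ (Finset.mem_univ _)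
    exact (Finset.sum_eq_sum_iff_of_le (s := Finset.univ) fun ψ _ => hle χ ψ).1 h5 ψ (Finset.mem_univ _)
  have hmχ : m χ ≠ 0 := fun h => hχ (by rw [hmul, h, Nat.cast_zero])
  have hmψ : m ψ ≠ 0 := fun h => hψ (by rw [hmul, h, Nat.cast_zero])
  constructor
  · rintro rfl
    have h5 := h4 χ χ
    rw [if_pos rfl] at h5
    have h6 : r χ χ = 1 := by
      have h7 : 0 < m χ * m χ := Nat.mul_pos (Nat.pos_of_ne_zero hmχ) (Nat.pos_of_ne_zero hmχ)
      exact (Nat.eq_of_mul_eq_mul_left h7 (by rw [mul_one]; exact h5)).symm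
    rw [hr, h6, Nat.cast_one]
  · intro hne
    have h5 := h4 χ ψ
    rw [if_neg hne] at h5
    have h6 : r χ ψ = 0 := by
      rcases Nat.mul_eq_zero.1 h5.symm with h7 | h7
      · rcases Nat.mul_eq_zero.1 h7 with h8 | h8
        · exact absurd h8 hmχ
        · exact absurd h8 hmψ
      · exact h7
    rw [hr, h6, Nat.cast_zero]

/-- inner product of two permutation characters -/
theorem inner_perm (X Y : Type w) [Finite X] [Finite Y] [MulAction G X] [MulAction G Y] :
    classInner (permC G X) (permC G Y) = (Nat.card (MulAction.orbitRel.Quotient G (X × Y)) : ℂ) := by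
  rw [← classInner_permC_one, Core.classInner_def, Core.classInner_def]
  congr 1
  refine Finset.sum_congr rfl fun g _ => ?_
  have h1 : permC G (X × Y) g = permC G X g * permC G Y g := by
    unfold permC
    rw [← Nat.cast_mul, ← Nat.card_prod]
    congr 1
    refine Nat.card_congr
      { toFun := fun z => (⟨z.1.1, congrArg Prod.fst z.2⟩, ⟨z.1.2, congrArg Prod.snd z.2⟩)
        invFun := fun z => ⟨(z.1.1, z.2.1), Prod.ext z.1.2 z.2.2⟩
        left_inv := fun _ => rfl
        right_inv := fun _ => rfl }
  rw [h1]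
  have h2 : conj (permC G Y g) = permC G Y g := by
    unfold permC
    exact Complex.conj_natCast _
  rw [h2, map_one, mul_one]

/-- the same orbits on pairs -/
theorem norm_perm {ι : Type*} [Fintype ι] (X : ι → Type w) [∀ i, Finite (X i)] [∀ i, MulAction G (X i)]
    (hO : ∀ (g : G) (i j : ι) (x : X i) (y : X j), ∃ h : H, f h • x = g • x ∧ f h • y = g • y) :
    classInner (fun h : H => (∑ i, permC G (X i)) (f h)) (fun h : H => (∑ i, permC G (X i)) (f h)) =
      classInner (∑ i, permC G (X i)) (∑ i, permC G (X i)) := by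
  classical
  have key : ∀ i j : ι, classInner (fun h : H => permC G (X i) (f h)) (fun h : H => permC G (X j) (f h)) =
      classInner (permC G (X i)) (permC G (X j)) := by
    intro i j
    let a1 : MulAction H (X i) := MulAction.compHom (X i) f
    let a2 : MulAction H (X j) := MulAction.compHom (X j) f
    have h1 := inner_perm (G := H) (X i) (X j)
    have h2 := inner_perm (G := G) (X i) (X j)
    rw [h2]
    refine (Eq.trans ?_ h1).trans ?_
    · rfl
    · congr 1
      refine Nat.card_congr (Quotient.congrRight fun a b => ?_)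
      constructor
      · rintro ⟨h, hh⟩
        exact ⟨f h, hh⟩
      · rintro ⟨g, hg⟩
        obtain ⟨h, h3, h4⟩ := hO g i j b.1 b.2
        refine ⟨h, ?_⟩
        have hg' : (g • b.1, g • b.2) = a := hg
        show (f h • b.1, f h • b.2) = a
        rw [h3, h4, hg']
  have h1 : (fun h : H => (∑ i, permC G (X i)) (f h)) = ∑ i, (fun h : H => permC G (X i) (f h)) := by
    funext h
    rw [Finset.sum_apply, Finset.sum_apply]
  rw [h1, Core.classInner_sum_left, Core.classInner_sum_left]
  refine Finset.sum_congr rfl fun i _ => ?_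
  rw [Core.classInner_sum_right, Core.classInner_sum_right]
  exact Finset.sum_congr rfl fun j _ => key i j

end norm

end Cfsg.Agent.H145.CY
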