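import Cfsg.Agent.H770.CY.Defs
import Cfsg.Agent.H145.CY.Rest
import Cfsg.Agent.H700.PrinCrit

/-!
# S4829: witnesses from permutation characters whose orbitals are preserved (helper145)

* `witA_of_ext` : a `Cyc` irreducible character of `A`, irreducible and nontrivial on `S`, of degree prime to `p`, whose
  restriction to the group `X` of `Amb` lies in the principal block, is a witness;
* `exists_canonical` : the canonical extension;
* `witA_of_orb` : **L2** : `A` acts on the finite sets `Ω i`, `S` transitively, `A` preserves all `S`-orbitals, all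
  constituents are `Cyc`, and the count is right;
* `witA_of_orb_eps` : only the constituents of the alternating sum need be `Cyc`;
* `witA_of_orb_dvd` : all `p ∣ #Ω i`;
* `witA_of_orb_val` : the numbers of fixed points on `C_A(Q)`.
-/

set_option autoImplicit false
set_option linter.unusedSectionVars false

open Subgroup
open scoped ComplexConjugate

namespace Cfsg.Agent.H145.CY

open Cfsg Cfsg.Agent.H770.CY Cfsg.Agent.H145.BR
open Cfsg.Agent.Characters

universe u v w

variable {p : ℕ} [hp : Fact p.Prime] {M : Ideal AlgInt} {S : Type u} [Group S] [Fintype S]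

/-- the inner automorphisms as a homomorphism to a group which contains them -/
def inn (X : Subgroup (MulAut S)) (hX : ∀ s : S, MulAut.conj s ∈ X) : S →* X :=
  MulAut.conj.codRestrict X hX

theorem inn_coe (X : Subgroup (MulAut S)) (hX : ∀ s : S, MulAut.conj s ∈ X) (s : S) :
    ((inn X hX s : X) : MulAut S) = MulAut.conj s := rfl

/-- the image of a Sylow subgroup has index prime to `p` -/
theorem not_dvd_index_map (X : Subgroup (MulAut S)) (hX : ∀ s : S, MulAut.conj s ∈ X)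
    (hi : ¬ p ∣ (MulAut.conj : S →* MulAut S).range.relIndex X) (Q : Sylow p S) :
    ¬ p ∣ ((Q : Subgroup S).map (inn X hX)).index := by
  rw [index_map]
  intro h
  rcases hp.out.dvd_mul.1 h with h1 | h1
  · exact Q.not_dvd_index (h1.trans (index_dvd_of_le le_sup_left))
  · apply hi
    have h2 : (inn X hX).range = (MulAut.conj : S →* MulAut S).range.subgroupOf X := by
      ext x
      rw [mem_subgroupOf]
      constructor
      · rintro ⟨s, rfl⟩
        exact ⟨s, rfl⟩
      · rintro ⟨s, hs⟩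
        exact ⟨s, Subtype.ext hs⟩
    rw [h2] at h1
    exact h1

/-- `p`-regular elements of `A` lie in `X` -/
theorem mem_of_regular {A X : Subgroup (MulAut S)} (hn : ∀ a ∈ A, ∀ x ∈ X, a * x * a⁻¹ ∈ X) {k : ℕ}
    (hk : X.relIndex A = p ^ k) (a : A) (ha : ¬ p ∣ orderOf a) : (a : MulAut S) ∈ X := by
  have hN : (X.subgroupOf A).Normal := ⟨fun x hx g => hn g g.2 x hx⟩
  have h1 : a ^ (p ^ k) ∈ X.subgroupOf A := by
    have h2 := Subgroup.pow_index_mem (X.subgroupOf A) a
    have h3 : (X.subgroupOf A).index = p ^ k := hk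
    rwa [h3] at h2
  have h2 : (p ^ k).Coprime (orderOf a) := Nat.Coprime.pow_left _ ((Nat.Prime.coprime_iff_not_dvd hp.out).2 ha)
  obtain ⟨m, hm⟩ := exists_pow_eq_self_of_coprime h2
  have h3 := pow_mem h1 m
  rw [hm] at h3
  exact h3

/-- **The general witness**: irreducible on `S` -/
theorem witA_of_ext (hM : IsPModular p M) {A : Subgroup (MulAut S)} (hI : ∀ s : S, MulAut.conj s ∈ A)
    (X : Subgroup (MulAut S)) (hXA : X ≤ A) (hX : ∀ s : S, MulAut.conj s ∈ X)
    (hn : ∀ a ∈ A, ∀ x ∈ X, a * x * a⁻¹ ∈ X) (hi : ¬ p ∣ (MulAut.conj : S →* MulAut S).range.relIndex X)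
    {k : ℕ} (hk : X.relIndex A = p ^ k) (Ψ : A → ℂ) (hΨ : IsCharacter A Ψ) (hΨc : Cyc p Ψ)
    (θ : IrrCharacter S) (hθ : ∀ s : S, Ψ ⟨MulAut.conj s, hI s⟩ = (θ : S → ℂ) s)
    (hθ1 : (θ : S → ℂ) ≠ fun _ => 1) (hθc : Cyc p (θ : S → ℂ)) (hd : ¬ p ∣ charDegree (θ : S → ℂ))
    (χ : IrrCharacter X) (hχ : χ ∈ principalBlock M X) (hχΨ : ∀ x : X, (χ : X → ℂ) x = Ψ ⟨x, hXA x.2⟩) :
    WitA p M S A hI Ψ := by
  classical
  have h1 : Ψ 1 = (charDegree (θ : S → ℂ) : ℂ) := by
    rw [← charDegree_cast' θ, ← hθ 1]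
    congr 1
    apply Subtype.ext
    show (1 : MulAut S) = MulAut.conj (1 : S)
    rw [map_one]
  refine ⟨hΨ, hΨc, ⟨_, h1, hd⟩, ?_, ?_⟩
  · intro η
    have h2 : H770.CY.mul (res hI Ψ) (η : S → ℂ) = classInner (θ : S → ℂ) (η : S → ℂ) := by
      rw [Core.classInner_def]
      unfold H770.CY.mul res
      congr 1
      exact Finset.sum_congr rfl fun s _ => by rw [hθ s]
    by_cases h : (θ : S → ℂ) = (η : S → ℂ)
    · right
      rw [h2, ← h, Core.classInner_irr_self θ.2]
      exact ⟨rfl, hθ1, hθc⟩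
    · left
      rw [h2, Core.classInner_irr_ne θ.2 η.2 h]
  · intro a ha hQ
    obtain ⟨Q, hQ⟩ := hQ
    have haX := mem_of_regular hn hk a ha
    have hdχ : ¬ p ∣ charDegree (χ : X → ℂ) := by
      have h3 : charDegree (χ : X → ℂ) = charDegree (θ : S → ℂ) := by
        have h4 := charDegree_cast' χ
        rw [hχΨ 1] at h4
        have h5 : Ψ ⟨((1 : X) : MulAut S), hXA (1 : X).2⟩ = Ψ 1 := rfl
        rw [h5, h1] at h4
        exact_mod_cast h4.symm
      rw [h3]
      exact hd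
    have h3 := (H700.PrinCrit.mem_principalBlock_iff hM (Q := (Q : Subgroup S).map (inn X hX))
      (Q.2.map _) (not_dvd_index_map X hX hi Q) χ hdχ).1 hχ ⟨a, haX⟩ (by
        rw [mem_centralizer_iff]
        rintro _ ⟨q, hq, rfl⟩
        apply Subtype.ext
        show MulAut.conj q * (a : MulAut S) = (a : MulAut S) * MulAut.conj q
        ext x
        show q * (a : MulAut S) x * q⁻¹ = (a : MulAut S) (q * x * q⁻¹)
        rw [map_mul, map_mul, map_inv, hQ q hq])
    rw [hχΨ, hχΨ] at h3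
    exact h3

/-- **The canonical extension.** `Φ` a character of `A` with `Φ(a ^ k) = Φ(a)` (`k` prime to `#A`), which has the same
norm on `S`; every irreducible character `χ` of a group `X` between `Inn S` and `A` with `[Φ_X, χ] ≠ 0` is the
restriction of an irreducible character of `A`, is irreducible on `S`, and inherits `Cyc` from `S`. -/
theorem exists_canonical (hinj : Function.Injective (MulAut.conj : S →* MulAut S)) {A : Subgroup (MulAut S)}
    [Fintype A] (hI : ∀ s : S, MulAut.conj s ∈ A)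
    {X : Subgroup (MulAut S)} [Fintype X] (hXA : X ≤ A)
    {Φ : A → ℂ} (hΦ : IsCharacter A Φ) (hrat : ∀ k : ℕ, k.Coprime (Nat.card A) → ∀ a : A, Φ (a ^ k) = Φ a)
    (h1 : classInner Φ (fun _ => 1) ≠ 0)
    (hnS : classInner (fun s : S => Φ (inn A hI s)) (fun s : S => Φ (inn A hI s)) = classInner Φ Φ)
    (hnX : classInner (fun x : X => Φ (inclusion hXA x)) (fun x : X => Φ (inclusion hXA x)) = classInner Φ Φ)
    (χ : IrrCharacter X) (hχ : classInner (fun x : X => Φ (inclusion hXA x)) (χ : X → ℂ) ≠ 0)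
    (hχ1 : (χ : X → ℂ) ≠ fun _ => 1) :
    ∃ (Ψ : IrrCharacter A) (θ : IrrCharacter S), classInner Φ (Ψ : A → ℂ) ≠ 0 ∧
      (∀ x : X, (χ : X → ℂ) x = (Ψ : A → ℂ) (inclusion hXA x)) ∧
      (∀ s : S, (Ψ : A → ℂ) (inn A hI s) = (θ : S → ℂ) s) ∧ (θ : S → ℂ) ≠ (fun _ => 1) ∧
      classInner (fun s : S => Φ (inn A hI s)) (θ : S → ℂ) ≠ 0 ∧
      (Cyc p (θ : S → ℂ) → Cyc p (Ψ : A → ℂ)) := by
  classical
  have := Core.finite_irr (G := A)
  have := Fintype.ofFinite (IrrCharacter A)
  obtain ⟨m, hm⟩ := Core.isCharacter_iff.1 hΦ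
  have hmul : ∀ χ : IrrCharacter A, classInner Φ (χ : A → ℂ) = (m χ : ℂ) := by
    intro χ
    rw [hm, Core.classInner_sum_nsmul_irr]
  -- the constituent of `Φ`
  obtain ⟨Ψ, hΨm, hΨχ⟩ : ∃ Ψ : IrrCharacter A, m Ψ ≠ 0 ∧
      classInner (fun x : X => (Ψ : A → ℂ) (inclusion hXA x)) (χ : X → ℂ) ≠ 0 := by
    by_contra hcon
    push Not at hcon
    apply hχ
    have h2 : (fun x : X => Φ (inclusion hXA x)) =
        ∑ Ψ : IrrCharacter A, (m Ψ : ℂ) • (fun x : X => (Ψ : A → ℂ) (inclusion hXA x)) := by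
      funext x
      rw [Finset.sum_apply]
      conv_lhs => rw [hm]
      rw [Finset.sum_apply]
      refine Finset.sum_congr rfl fun χ _ => ?_
      rw [Pi.smul_apply, Pi.smul_apply, nsmul_eq_mul, smul_eq_mul]
    rw [h2, Core.classInner_sum_left]
    refine Finset.sum_eq_zero fun Ψ _ => ?_
    rw [Core.classInner_smul_left]
    by_cases h3 : m Ψ = 0
    · rw [h3, Nat.cast_zero, zero_mul]
    · rw [hcon Ψ h3, mul_zero]
  have hΨ0 : classInner Φ (Ψ : A → ℂ) ≠ 0 := by
    rw [hmul]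
    exact_mod_cast hΨm
  -- irreducible on `X` and on `S`
  have hX1 := (rest_of_norm (inclusion hXA) hΦ hnX Ψ Ψ hΨ0 hΨ0).1 rfl
  have hS1 := (rest_of_norm (inn A hI) hΦ hnS Ψ Ψ hΨ0 hΨ0).1 rfl
  have hXi := Core.isIrr_of_classInner_self (Core.isCharacter_comp (inclusion hXA) (Core.isIrr_isCharacter Ψ.2)) hX1
  have hSi := Core.isIrr_of_classInner_self (Core.isCharacter_comp (inn A hI) (Core.isIrr_isCharacter Ψ.2)) hS1
  have hχe : (fun x : X => (Ψ : A → ℂ) (inclusion hXA x)) = (χ : X → ℂ) := by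
    by_contra h
    exact hΨχ (Core.classInner_irr_ne hXi χ.2 h)
  have hone : ∃ o : IrrCharacter A, (o : A → ℂ) = fun _ => 1 := ⟨⟨_, Core.isIrr_one⟩, rfl⟩
  obtain ⟨o, ho⟩ := hone
  have ho0 : classInner Φ (o : A → ℂ) ≠ 0 := by
    rw [ho]
    exact h1
  refine ⟨Ψ, ⟨_, hSi⟩, hΨ0, fun x => (congrFun hχe x).symm, fun s => rfl, ?_, ?_, ?_⟩
  · intro h2
    have hne : Ψ ≠ o := by
      intro h3
      apply hχ1
      rw [← hχe, h3, ho]
    have h3 := (rest_of_norm (inn A hI) hΦ hnS Ψ o hΨ0 ho0).2 hne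
    rw [ho] at h3
    have h4 : (fun s : S => (Ψ : A → ℂ) (inn A hI s)) = fun _ => 1 := h2
    rw [h4] at h3
    have h5 := Core.classInner_irr_self (G := S) (χ := fun _ => 1) Core.isIrr_one
    rw [h3] at h5
    exact zero_ne_one h5
  · -- `θ` is a constituent on `S`
    have h2 : classInner (fun s : S => Φ (inn A hI s)) (fun s : S => (Ψ : A → ℂ) (inn A hI s)) = (m Ψ : ℂ) := by
      have h3 : (fun s : S => Φ (inn A hI s)) =
          ∑ η : IrrCharacter A, (m η : ℂ) • (fun s : S => (η : A → ℂ) (inn A hI s)) := by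
        funext x
        rw [Finset.sum_apply]
        conv_lhs => rw [hm]
        rw [Finset.sum_apply]
        refine Finset.sum_congr rfl fun χ _ => ?_
        rw [Pi.smul_apply, Pi.smul_apply, nsmul_eq_mul, smul_eq_mul]
      rw [h3, Core.classInner_sum_left, Finset.sum_eq_single Ψ]
      · rw [Core.classInner_smul_left, hS1, mul_one]
      · intro η _ hη
        rw [Core.classInner_smul_left]
        by_cases h4 : m η = 0
        · rw [h4, Nat.cast_zero, zero_mul]
        · rw [(rest_of_norm (inn A hI) hΦ hnS η Ψ (by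
            rw [hmul]
            exact_mod_cast h4) hΨ0).2 hη, mul_zero]
      · intro h
        exact absurd (Finset.mem_univ _) h
    show classInner (fun s : S => Φ (inn A hI s)) (fun s : S => (Ψ : A → ℂ) (inn A hI s)) ≠ 0
    rw [h2]
    exact_mod_cast hΨm
  · -- the Galois group
    intro hc k hk hkp
    set Ψ' : IrrCharacter A := ⟨fun g => (Ψ : A → ℂ) (g ^ k), Cfsg.Agent.Characters.GaloisIrr.isIrr_pow hk Ψ.2⟩ with hΨ'
    have h2 : classInner Φ (Ψ' : A → ℂ) ≠ 0 := by
      have h3 : classInner Φ (Ψ' : A → ℂ) = classInner Φ (Ψ : A → ℂ) := by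
        rw [Core.classInner_def, Core.classInner_def]
        congr 1
        rw [← Equiv.sum_comp (powCoprime hk.symm) (fun a : A => Φ a * conj ((Ψ : A → ℂ) a))]
        refine Finset.sum_congr rfl fun a _ => ?_
        show Φ a * conj ((Ψ : A → ℂ) (a ^ k)) = Φ (a ^ k) * conj ((Ψ : A → ℂ) (a ^ k))
        rw [hrat k hk]
      rw [h3]
      exact hΨ0
    by_cases heq : Ψ' = Ψ
    · intro g
      exact congrFun (congrArg Subtype.val heq) g
    · exfalso
      have h3 := (rest_of_norm (inn A hI) hΦ hnS Ψ' Ψ h2 hΨ0).2 heq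
      have hkS : k.Coprime (Nat.card S) := hk.coprime_dvd_right (card_dvd_of_injective (inn A hI)
        fun a b hab => hinj (congrArg Subtype.val hab))
      have h4 : (fun s : S => (Ψ' : A → ℂ) (inn A hI s)) = fun s : S => (Ψ : A → ℂ) (inn A hI s) := by
        funext s
        show (Ψ : A → ℂ) ((inn A hI s) ^ k) = (Ψ : A → ℂ) (inn A hI s)
        rw [← map_pow]
        exact hc k hkS hkp s
      rw [h4, hS1] at h3
      exact one_ne_zero h3

/-- multiplicities are kept under restriction -/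
theorem mult_rest {G : Type u} [Group G] [Fintype G] {H : Type v} [Group H] [Fintype H] (f : H →* G) {Φ : G → ℂ}
    (hΦ : IsCharacter G Φ)
    (hn : classInner (fun h : H => Φ (f h)) (fun h : H => Φ (f h)) = classInner Φ Φ) {Φ' : G → ℂ}
    (hΦ' : IsCharacter G Φ') (hle : ∀ η : IrrCharacter G, classInner Φ' (η : G → ℂ) ≠ 0 → classInner Φ (η : G → ℂ) ≠ 0)
    (Ψ : IrrCharacter G) (hΨ : classInner Φ (Ψ : G → ℂ) ≠ 0) :
    classInner (fun h : H => Φ' (f h)) (fun h : H => (Ψ : G → ℂ) (f h)) = classInner Φ' (Ψ : G → ℂ) := by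
  classical
  have := Core.finite_irr (G := G)
  have := Fintype.ofFinite (IrrCharacter G)
  obtain ⟨m, hm⟩ := Core.isCharacter_iff.1 hΦ'
  have hmul : ∀ χ : IrrCharacter G, classInner Φ' (χ : G → ℂ) = (m χ : ℂ) := by
    intro χ
    rw [hm, Core.classInner_sum_nsmul_irr]
  have h3 : (fun s : H => Φ' (f s)) =
      ∑ η : IrrCharacter G, (m η : ℂ) • (fun s : H => (η : G → ℂ) (f s)) := by
    funext x
    rw [Finset.sum_apply]
    conv_lhs => rw [hm]
    rw [Finset.sum_apply]
    refine Finset.sum_congr rfl fun χ _ => ?_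
    rw [Pi.smul_apply, Pi.smul_apply, nsmul_eq_mul, smul_eq_mul]
  rw [hmul, h3, Core.classInner_sum_left, Finset.sum_eq_single Ψ]
  · rw [Core.classInner_smul_left, (rest_of_norm f hΦ hn Ψ Ψ hΨ hΨ).1 rfl, mul_one]
  · intro η _ hη
    rw [Core.classInner_smul_left]
    by_cases h4 : m η = 0
    · rw [h4, Nat.cast_zero, zero_mul]
    · rw [(rest_of_norm f hΦ hn η Ψ (hle η (by
        rw [hmul]
        exact_mod_cast h4)) hΨ).2 hη, mul_zero]
  · intro h
    exact absurd (Finset.mem_univ _) h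

/-- `cnt` for the action of a subgroup -/
noncomputable def cntA {A X : Subgroup (MulAut S)} (hXA : X ≤ A) (P : Subgroup X) (Ω : Type w) [MulAction A Ω] : ℕ :=
  @cnt X _ P Ω (MulAction.compHom Ω (inclusion hXA))

/-- **L2, with signs.** `A` acts on the sets `Ω i`, transitive for `S`, preserving all `S`-orbitals (also between `Ω i`
and `Ω j`); the constituents on `S` of `∑ ε i • permC (Ω i)` are `Cyc`. The count: `cntA P (Ω i)` is the number of
orbits of `C_X(P)` on the points fixed by the Sylow subgroup `P` of `X`. -/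
theorem witA_of_orb_eps (hM : IsPModular p M) (hinj : Function.Injective (MulAut.conj : S →* MulAut S))
    {A : Subgroup (MulAut S)} (hA : Amb p S A) {ι : Type v} [Fintype ι] [Nonempty ι] (Ω : ι → Type w) [∀ i, Finite (Ω i)]
    [∀ i, Nonempty (Ω i)] [∀ i, MulAction A (Ω i)] (ε : ι → ℤ)
    (hT : ∀ (i : ι) (x y : Ω i), ∃ s : S, inn A hA.1 s • x = y)
    (hO : ∀ (a : A) (i j : ι) (x : Ω i) (y : Ω j), ∃ s : S, inn A hA.1 s • x = a • x ∧ inn A hA.1 s • y = a • y)
    (hcyc : ∀ θ : IrrCharacter S,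
      ∑ i, (ε i : ℂ) * classInner (fun s : S => permC A (Ω i) (inn A hA.1 s)) (θ : S → ℂ) ≠ 0 → Cyc p (θ : S → ℂ))
    (hcnt : ∀ (X : Subgroup (MulAut S)) (hXA : X ≤ A) (_ : ∀ s : S, MulAut.conj s ∈ X),
      ¬ p ∣ (MulAut.conj : S →* MulAut S).range.relIndex X → ∃ P : Sylow p X,
        ¬ (∑ i, ε i * (cntA hXA (P : Subgroup X) (Ω i) : ℤ)) ≡ ∑ i, ε i [ZMOD p]) :
    ∃ Ψ : A → ℂ, WitA p M S A hA.1 Ψ := by
  classical
  obtain ⟨hI, X, hXA, hX, hn, hi, k, hk⟩ := hA
  have := Fintype.ofFinite A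
  have := Fintype.ofFinite X
  obtain ⟨P, hP⟩ := hcnt X hXA hX hi
  let aX : ∀ i, MulAction X (Ω i) := fun i => MulAction.compHom (Ω i) (inclusion hXA)
  have htr : ∀ i, MulAction.IsPretransitive X (Ω i) := fun i => ⟨fun x y => by
    obtain ⟨s, hs⟩ := hT i x y
    exact ⟨inn X hX s, hs⟩⟩
  obtain ⟨χ, hχB, hχ1, hχp, hχm, -⟩ := exists_of_count Finset.univ Ω ε hM P (⊥ : Subgroup (MulAut X)) IsPGroup.of_bot
    (by
      intro a ha g
      rw [Subgroup.mem_bot.1 ha]
      rfl) (by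
    have h1 : ∀ i, Nat.card (MulAction.orbitRel.Quotient X (Ω i)) = 1 := fun i => card_orb_one (Ω i)
    simp only [h1, Nat.cast_one, mul_one]
    exact hP)
  set Φ : A → ℂ := ∑ i, permC A (Ω i) with hΦd
  have hΦ : IsCharacter A Φ := Core.isCharacter_sum _ fun i _ => isCharacter_permC (Ω i)
  have hΦX : (fun x : X => Φ (inclusion hXA x)) = ∑ i, permC X (Ω i) := by
    funext x
    rw [hΦd, Finset.sum_apply, Finset.sum_apply]
    rfl
  have hnat : ∀ i, ∃ n : ℕ, classInner (permC X (Ω i)) (χ : X → ℂ) = n := fun i =>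
    Core.classInner_isNat (isCharacter_permC (Ω i)) (Core.isIrr_isCharacter χ.2)
  choose n hn' using hnat
  have hχΦ : classInner (fun x : X => Φ (inclusion hXA x)) (χ : X → ℂ) ≠ 0 := by
    intro h
    apply hχm
    rw [hΦX, Core.classInner_sum_left, Finset.sum_congr rfl fun i _ => hn' i] at h
    have h2 : ∀ i, n i = 0 := by
      have h3 : ∑ i, n i = 0 := by exact_mod_cast h
      intro i
      exact (Finset.sum_eq_zero_iff.1 h3) i (Finset.mem_univ _)
    rw [classInner_gpc]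
    refine Finset.sum_eq_zero fun i _ => ?_
    rw [hn', h2, Nat.cast_zero, mul_zero]
  have hnS := norm_perm (inn A hI) Ω (fun a i j x y => hO a i j x y)
  have hnX := norm_perm (inclusion hXA) Ω (fun a i j x y => by
    obtain ⟨s, h1, h2⟩ := hO a i j x y
    exact ⟨inn X hX s, h1, h2⟩)
  have hone : classInner Φ (fun _ => 1) ≠ 0 := by
    rw [hΦd, Core.classInner_sum_left, Finset.sum_congr rfl fun i _ => classInner_permC_one (Ω i)]
    have h1 : ∀ i, 0 < Nat.card (MulAction.orbitRel.Quotient A (Ω i)) := fun i => by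
      have h3 : Nonempty (MulAction.orbitRel.Quotient A (Ω i)) := ⟨Quotient.mk'' (Classical.arbitrary (Ω i))⟩
      exact Nat.card_pos
    rw [← Nat.cast_sum]
    have h2 : 0 < ∑ i, Nat.card (MulAction.orbitRel.Quotient A (Ω i)) :=
      Finset.sum_pos (fun i _ => h1 i) Finset.univ_nonempty
    exact_mod_cast h2.ne'
  have hrat : ∀ k : ℕ, k.Coprime (Nat.card A) → ∀ a : A, Φ (a ^ k) = Φ a := by
    intro k hk a
    rw [hΦd, Finset.sum_apply, Finset.sum_apply]
    refine Finset.sum_congr rfl fun i _ => ?_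
    have h1 : k.Coprime (orderOf a) := hk.coprime_dvd_right (orderOf_dvd_natCard a)
    obtain ⟨m, hm⟩ := exists_pow_eq_self_of_coprime h1
    have h0 : MulAction.fixedBy (Ω i) (a ^ k) = MulAction.fixedBy (Ω i) a := by
     ext x
     rw [MulAction.mem_fixedBy, MulAction.mem_fixedBy]
     constructor
     · intro h
       conv_lhs => rw [← hm]
       exact MulAction.mem_stabilizer_iff.1 (pow_mem (MulAction.mem_stabilizer_iff.2 h) m)
     · intro h
       exact MulAction.mem_stabilizer_iff.1 (pow_mem (MulAction.mem_stabilizer_iff.2 h) k)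
    unfold permC
    rw [h0]
  obtain ⟨Ψ, θ, h0, h2, h3, h4, -, h6⟩ := exists_canonical (p := p) hinj hI hXA hΦ hrat hone hnS hnX χ hχΦ hχ1
  have hθc : Cyc p (θ : S → ℂ) := by
    have hle : ∀ (i : ι) (η : IrrCharacter A), classInner (permC A (Ω i)) (η : A → ℂ) ≠ 0 →
        classInner Φ (η : A → ℂ) ≠ 0 := by
      intro i η hne h
      have hnat' : ∀ j, ∃ n : ℕ, classInner (permC A (Ω j)) (η : A → ℂ) = n := fun j =>
        Core.classInner_isNat (isCharacter_permC (Ω j)) (Core.isIrr_isCharacter η.2)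
      choose n' hn'' using hnat'
      apply hne
      rw [hΦd, Core.classInner_sum_left, Finset.sum_congr rfl fun j _ => hn'' j] at h
      have h3 : ∑ j, n' j = 0 := by exact_mod_cast h
      rw [hn'', (Finset.sum_eq_zero_iff.1 h3) i (Finset.mem_univ _), Nat.cast_zero]
    have hθe : (θ : S → ℂ) = fun s : S => (Ψ : A → ℂ) (inn A hI s) := funext fun s => (h3 s).symm
    have hχe : (χ : X → ℂ) = fun x : X => (Ψ : A → ℂ) (inclusion hXA x) := funext h2
    have h7 : ∀ i, classInner (fun s : S => permC A (Ω i) (inn A hI s)) (θ : S → ℂ) =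
        classInner (permC X (Ω i)) (χ : X → ℂ) := by
      intro i
      rw [hθe, mult_rest (inn A hI) hΦ hnS (isCharacter_permC (Ω i)) (hle i) Ψ h0, hχe,
        ← mult_rest (inclusion hXA) hΦ hnX (isCharacter_permC (Ω i)) (hle i) Ψ h0]
      rfl
    apply hcyc
    rw [Finset.sum_congr rfl fun i _ => by rw [h7 i], ← classInner_gpc]
    exact hχm
  have hd : charDegree (χ : X → ℂ) = charDegree (θ : S → ℂ) := by
    have e1 := charDegree_cast' χ
    have e2 := charDegree_cast' θ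
    rw [h2 1] at e1
    have e3 := h3 1
    rw [map_one] at e3
    rw [map_one, e3, e2] at e1
    exact_mod_cast e1.symm
  exact ⟨(Ψ : A → ℂ), witA_of_ext hM hI X hXA hX hn hi hk (Ψ : A → ℂ) (Core.isIrr_isCharacter Ψ.2) (h6 hθc) θ
    (fun s => h3 s) h4 hθc (hd ▸ hχp) χ hχB (fun x => h2 x)⟩

/-- **L2.** `A` acts on the sets `Ω i`, transitive for `S`, preserving all `S`-orbitals (also between `Ω i` and `Ω j`),
all constituents on `S` are `Cyc`. The count: `cntA P (Ω i)` is the number of orbits of `C_X(P)` on the points fixed by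
the Sylow subgroup `P` of `X`. -/
theorem witA_of_orb (hM : IsPModular p M) (hinj : Function.Injective (MulAut.conj : S →* MulAut S))
    {A : Subgroup (MulAut S)} (hA : Amb p S A) {ι : Type v} [Fintype ι] [Nonempty ι] (Ω : ι → Type w) [∀ i, Finite (Ω i)]
    [∀ i, Nonempty (Ω i)] [∀ i, MulAction A (Ω i)] (ε : ι → ℤ)
    (hT : ∀ (i : ι) (x y : Ω i), ∃ s : S, inn A hA.1 s • x = y)
    (hO : ∀ (a : A) (i j : ι) (x : Ω i) (y : Ω j), ∃ s : S, inn A hA.1 s • x = a • x ∧ inn A hA.1 s • y = a • y)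
    (hcyc : ∀ (i : ι) (θ : IrrCharacter S), classInner (fun s : S => permC A (Ω i) (inn A hA.1 s)) (θ : S → ℂ) ≠ 0 →
      Cyc p (θ : S → ℂ))
    (hcnt : ∀ (X : Subgroup (MulAut S)) (hXA : X ≤ A) (_ : ∀ s : S, MulAut.conj s ∈ X),
      ¬ p ∣ (MulAut.conj : S →* MulAut S).range.relIndex X → ∃ P : Sylow p X,
        ¬ (∑ i, ε i * (cntA hXA (P : Subgroup X) (Ω i) : ℤ)) ≡ ∑ i, ε i [ZMOD p]) :
    ∃ Ψ : A → ℂ, WitA p M S A hA.1 Ψ := by
  refine witA_of_orb_eps hM hinj hA Ω ε hT hO (fun θ hθ => ?_) hcnt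
  obtain ⟨i, -, hi⟩ := Finset.exists_ne_zero_of_sum_ne_zero hθ
  exact hcyc i θ (right_ne_zero_of_mul hi)

/-- the image of a Sylow subgroup of `S` -/
noncomputable def sylX (X : Subgroup (MulAut S)) (hX : ∀ s : S, MulAut.conj s ∈ X)
    (hi : ¬ p ∣ (MulAut.conj : S →* MulAut S).range.relIndex X) (Q : Sylow p S) : Sylow p X :=
  (Q.2.map (inn X hX)).toSylow (not_dvd_index_map X hX hi Q)

theorem coe_sylX (X : Subgroup (MulAut S)) (hX : ∀ s : S, MulAut.conj s ∈ X)
    (hi : ¬ p ∣ (MulAut.conj : S →* MulAut S).range.relIndex X) (Q : Sylow p S) :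
    ((sylX X hX hi Q : Sylow p X) : Subgroup X) = (Q : Subgroup S).map (inn X hX) := rfl

/-- `p ∣ #Ω`: no fixed points -/
theorem cntA_of_dvd {A : Subgroup (MulAut S)} (hI : ∀ s : S, MulAut.conj s ∈ A) (Ω : Type w) [Finite Ω] [MulAction A Ω]
    (hT : ∀ x y : Ω, ∃ s : S, inn A hI s • x = y) (hd : p ∣ Nat.card Ω) (X : Subgroup (MulAut S)) (hXA : X ≤ A)
    (hX : ∀ s : S, MulAut.conj s ∈ X) (Q : Sylow p S) :
    cntA hXA ((Q : Subgroup S).map (inn X hX)) Ω = 0 := by
  unfold cntA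
  let aX : MulAction X Ω := MulAction.compHom Ω (inclusion hXA)
  show cnt ((Q : Subgroup S).map (inn X hX)) Ω = 0
  have h : IsEmpty {x : Ω // ∀ g ∈ (Q : Subgroup S).map (inn X hX), g • x = x} := by
    refine ⟨fun x => ?_⟩
    let aS : MulAction S Ω := MulAction.compHom Ω (inn A hI)
    have htr : MulAction.IsPretransitive S Ω := ⟨hT⟩
    have h1 : (Q : Subgroup S) ≤ MulAction.stabilizer S x.1 := fun q hq => x.2 (inn X hX q) ⟨q, hq, rfl⟩
    have h2 := MulAction.index_stabilizer_of_transitive S x.1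
    exact Q.not_dvd_index ((h2 ▸ hd).trans (index_dvd_of_le h1))
  unfold cnt
  rw [Nat.card_eq_zero]
  left
  exact ⟨fun q => Quot.inductionOn q fun x => h.false x⟩

/-- **L2, all degrees divisible by `p`** -/
theorem witA_of_orb_dvd (hM : IsPModular p M) (hinj : Function.Injective (MulAut.conj : S →* MulAut S))
    {A : Subgroup (MulAut S)} (hA : Amb p S A) {ι : Type v} [Fintype ι] [Nonempty ι] (Ω : ι → Type w) [∀ i, Finite (Ω i)]
    [∀ i, Nonempty (Ω i)] [∀ i, MulAction A (Ω i)] (ε : ι → ℤ)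
    (hT : ∀ (i : ι) (x y : Ω i), ∃ s : S, inn A hA.1 s • x = y)
    (hO : ∀ (a : A) (i j : ι) (x : Ω i) (y : Ω j), ∃ s : S, inn A hA.1 s • x = a • x ∧ inn A hA.1 s • y = a • y)
    (hcyc : ∀ (i : ι) (θ : IrrCharacter S), classInner (fun s : S => permC A (Ω i) (inn A hA.1 s)) (θ : S → ℂ) ≠ 0 →
      Cyc p (θ : S → ℂ))
    (hd : ∀ i, p ∣ Nat.card (Ω i)) (hε : ¬ (p : ℤ) ∣ ∑ i, ε i) :
    ∃ Ψ : A → ℂ, WitA p M S A hA.1 Ψ := by
  refine witA_of_orb hM hinj hA Ω ε hT hO hcyc fun X hXA hX hi => ⟨sylX X hX hi default, ?_⟩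
  rw [coe_sylX]
  have h1 : ∀ i, cntA hXA (((default : Sylow p S) : Subgroup S).map (inn X hX)) (Ω i) = 0 := fun i =>
    cntA_of_dvd hA.1 (Ω i) (hT i) (hd i) X hXA hX default
  simp only [h1, Nat.cast_zero, mul_zero, Finset.sum_const_zero]
  intro h
  exact hε ((Int.modEq_zero_iff_dvd).1 h.symm)

/-- `cnt` from the numbers of fixed points of the `p`-regular elements of `C_G(P)` -/
theorem cnt_modEq_of_val {G : Type v} [Group G] [Finite G] (P : Sylow p G) (Ω : Type w) [Finite Ω] [MulAction G Ω]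
    (h : ∀ c ∈ centralizer ((P : Subgroup G) : Set G), ¬ p ∣ orderOf c →
      Nat.card (MulAction.fixedBy Ω c) ≡ Nat.card Ω [MOD p]) :
    cnt (P : Subgroup G) Ω ≡ Nat.card Ω [MOD p] := by
  classical
  obtain ⟨K, hKC, hK, hdec⟩ := exists_compl P
  let Y := {x : Ω // ∀ g ∈ (P : Subgroup G), g • x = x}
  let actY : MulAction K Y :=
    { smul := fun k y => ⟨(k : G) • y.1, fun g hg => by
        have := (mem_centralizer_iff.1 (hKC k.2)) g hg
        rw [smul_smul, this, mul_smul, y.2 g hg]⟩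
      one_smul := fun y => Subtype.ext (one_smul G y.1)
      mul_smul := fun g h y => Subtype.ext (mul_smul (g : G) (h : G) y.1) }
  have h4 : Nat.card (Quotient (MulAction.orbitRel K Y)) = cnt (P : Subgroup G) Ω := by
    unfold cnt
    refine Nat.card_congr ?_
    refine Quot.congrRight fun x y => ?_
    rw [MulAction.orbitRel_apply]
    constructor
    · rintro ⟨k, hk⟩
      refine ⟨(k : G)⁻¹, inv_mem (hKC k.2), ?_⟩
      rw [← hk]
      show (k : G)⁻¹ • ((k : G) • y.1) = y.1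
      rw [inv_smul_smul]
    · rintro ⟨c, hc, hcxy⟩
      obtain ⟨z, hz, k, hk, rfl⟩ := hdec c hc
      refine ⟨⟨k, hk⟩⁻¹, ?_⟩
      apply Subtype.ext
      show (k : G)⁻¹ • y.1 = x.1
      rw [← hcxy]
      have h5 : z * k = k * z := (mem_centralizer_iff.1 (hKC hk)) z hz
      rw [h5, mul_smul, inv_smul_smul]
      exact x.2 z hz
  have h5 : Nat.card (Σ k : K, MulAction.fixedBy Y k) = cnt (P : Subgroup G) Ω * Nat.card K := by
    rw [Nat.card_congr (MulAction.sigmaFixedByEquivOrbitsProdGroup K Y), Nat.card_prod, h4]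
  have h6 : ∀ k : K, Nat.card (MulAction.fixedBy Y k) ≡ Nat.card Ω [MOD p] := by
    intro k
    refine Nat.ModEq.trans ?_ (h k (hKC k.2) ((hK _).1 k.2).2)
    let actF : MulAction (P : Subgroup G) (MulAction.fixedBy Ω (k : G)) :=
      { smul := fun g x => ⟨(g : G) • x.1, by
          have h7 := (mem_centralizer_iff.1 (hKC k.2)) (g : G) g.2
          show (k : G) • (g : G) • x.1 = (g : G) • x.1
          rw [smul_smul, ← h7, mul_smul, show (k : G) • x.1 = x.1 from x.2]⟩
        one_smul := fun x => Subtype.ext (one_smul G x.1)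
        mul_smul := fun g h x => Subtype.ext (mul_smul (g : G) (h : G) x.1) }
    have h8 : Nat.card (MulAction.fixedBy Ω (k : G)) ≡
        Nat.card (MulAction.fixedPoints (P : Subgroup G) (MulAction.fixedBy Ω (k : G))) [MOD p] :=
      P.2.card_modEq_card_fixedPoints (MulAction.fixedBy Ω (k : G))
    refine Nat.ModEq.trans ?_ h8.symm
    have h9 : Nat.card (MulAction.fixedBy Y k) =
        Nat.card (MulAction.fixedPoints (P : Subgroup G) (MulAction.fixedBy Ω (k : G))) := by
      refine Nat.card_congr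
        { toFun := fun x => ⟨⟨x.1.1, congrArg Subtype.val x.2⟩, fun g => Subtype.ext (x.1.2 g g.2)⟩
          invFun := fun x => ⟨⟨x.1.1, fun g hg => congrArg Subtype.val (x.2 ⟨g, hg⟩)⟩, Subtype.ext x.1.2⟩
          left_inv := fun _ => rfl
          right_inv := fun _ => rfl }
    rw [h9]
  have h7 : Nat.card (Σ k : K, MulAction.fixedBy Y k) ≡ Nat.card K * Nat.card Ω [MOD p] := by
    have hft := Fintype.ofFinite K
    rw [Nat.card_sigma]
    have h8 : ∑ k : K, Nat.card (MulAction.fixedBy Y k) ≡ ∑ _k : K, Nat.card Ω [MOD p] := by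
      have h9 : ∀ s : Finset K, ∑ k ∈ s, Nat.card (MulAction.fixedBy Y k) ≡ ∑ _k ∈ s, Nat.card Ω [MOD p] := by
        intro s
        induction s using Finset.induction_on with
        | empty => exact Nat.ModEq.refl _
        | insert a s ha ih =>
          rw [Finset.sum_insert ha, Finset.sum_insert ha]
          exact (h6 a).add ih
      exact h9 _
    refine h8.trans ?_
    rw [Finset.sum_const, Finset.card_univ, smul_eq_mul, Nat.card_eq_fintype_card (α := K)]
  rw [h5] at h7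
  have h8 : Nat.Coprime p (Nat.card K) := by
    rw [Nat.Prime.coprime_iff_not_dvd hp.out]
    intro h9
    obtain ⟨x, hx⟩ := exists_prime_orderOf_dvd_card' p h9
    apply ((hK (x : G)).1 x.2).2
    rw [Subgroup.orderOf_coe, hx]
  rw [mul_comm (Nat.card K)] at h7
  exact Nat.ModEq.cancel_right_of_coprime h8 h7

/-- **L2, with signs and the numbers of fixed points** -/
theorem witA_of_orb_eps_val (hM : IsPModular p M) (hinj : Function.Injective (MulAut.conj : S →* MulAut S))
    {A : Subgroup (MulAut S)} (hA : Amb p S A) {ι : Type v} [Fintype ι] [Nonempty ι] (Ω : ι → Type w) [∀ i, Finite (Ω i)]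
    [∀ i, Nonempty (Ω i)] [∀ i, MulAction A (Ω i)] (ε : ι → ℤ)
    (hT : ∀ (i : ι) (x y : Ω i), ∃ s : S, inn A hA.1 s • x = y)
    (hO : ∀ (a : A) (i j : ι) (x : Ω i) (y : Ω j), ∃ s : S, inn A hA.1 s • x = a • x ∧ inn A hA.1 s • y = a • y)
    (hcyc : ∀ θ : IrrCharacter S,
      ∑ i, (ε i : ℂ) * classInner (fun s : S => permC A (Ω i) (inn A hA.1 s)) (θ : S → ℂ) ≠ 0 → Cyc p (θ : S → ℂ))
    (hval : ∀ a : A, ¬ p ∣ orderOf a → (∃ Q : Sylow p S, ∀ x ∈ Q, (a : MulAut S) x = x) → ∀ i,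
      Nat.card (MulAction.fixedBy (Ω i) a) ≡ Nat.card (Ω i) [MOD p])
    (hne : ¬ (∑ i, ε i * (Nat.card (Ω i) : ℤ)) ≡ ∑ i, ε i [ZMOD p]) :
    ∃ Ψ : A → ℂ, WitA p M S A hA.1 Ψ := by
  classical
  refine witA_of_orb_eps hM hinj hA Ω ε hT hO hcyc fun X hXA hX hi => ⟨sylX X hX hi default, ?_⟩
  intro h
  apply hne
  refine Int.ModEq.trans ?_ h
  have key : ∀ i, (Nat.card (Ω i) : ℤ) ≡ (cntA hXA ((sylX X hX hi default : Sylow p X) : Subgroup X) (Ω i) : ℤ) [ZMOD p] := by
    intro i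
    let aX : MulAction X (Ω i) := MulAction.compHom (Ω i) (inclusion hXA)
    refine ((Int.natCast_modEq_iff).2 (cnt_modEq_of_val (sylX X hX hi default) (Ω i) ?_)).symm
    intro c hc hcp
    refine hval (inclusion hXA c) ?_ ⟨default, ?_⟩ i
    · rwa [orderOf_injective (inclusion hXA) (inclusion_injective hXA)]
    · intro q hq
      apply hinj
      have h1 := mem_centralizer_iff.1 hc (inn X hX q) (by
        show inn X hX q ∈ ((sylX X hX hi default : Sylow p X) : Subgroup X)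
        rw [coe_sylX]
        exact ⟨q, hq, rfl⟩)
      have h2 : MulAut.conj q * (c : MulAut S) = (c : MulAut S) * MulAut.conj q := congrArg Subtype.val h1
      have h3 : MulAut.conj ((c : MulAut S) q) = (c : MulAut S) * MulAut.conj q * (c : MulAut S)⁻¹ := by
        ext x
        show (c : MulAut S) q * x * ((c : MulAut S) q)⁻¹ = (c : MulAut S) (q * ((c : MulAut S)⁻¹ x) * q⁻¹)
        rw [map_mul, map_mul, map_inv, MulAut.apply_inv_self]
      show MulAut.conj ((c : MulAut S) q) = MulAut.conj q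
      rw [h3, ← h2, mul_inv_cancel_right]
  have h9 : ∀ s : Finset ι, ∑ i ∈ s, ε i * (Nat.card (Ω i) : ℤ) ≡
      ∑ i ∈ s, ε i * (cntA hXA ((sylX X hX hi default : Sylow p X) : Subgroup X) (Ω i) : ℤ) [ZMOD p] := by
    intro s
    induction s using Finset.induction_on with
    | empty => exact Int.ModEq.refl _
    | insert a s ha ih =>
      rw [Finset.sum_insert ha, Finset.sum_insert ha]
      exact ((key a).mul_left (ε a)).add ih
  exact h9 _

/-- **L2, with the numbers of fixed points** -/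
theorem witA_of_orb_val (hM : IsPModular p M) (hinj : Function.Injective (MulAut.conj : S →* MulAut S))
    {A : Subgroup (MulAut S)} (hA : Amb p S A) {ι : Type v} [Fintype ι] [Nonempty ι] (Ω : ι → Type w) [∀ i, Finite (Ω i)]
    [∀ i, Nonempty (Ω i)] [∀ i, MulAction A (Ω i)] (ε : ι → ℤ)
    (hT : ∀ (i : ι) (x y : Ω i), ∃ s : S, inn A hA.1 s • x = y)
    (hO : ∀ (a : A) (i j : ι) (x : Ω i) (y : Ω j), ∃ s : S, inn A hA.1 s • x = a • x ∧ inn A hA.1 s • y = a • y)
    (hcyc : ∀ (i : ι) (θ : IrrCharacter S), classInner (fun s : S => permC A (Ω i) (inn A hA.1 s)) (θ : S → ℂ) ≠ 0 →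
      Cyc p (θ : S → ℂ))
    (hval : ∀ a : A, ¬ p ∣ orderOf a → (∃ Q : Sylow p S, ∀ x ∈ Q, (a : MulAut S) x = x) → ∀ i,
      Nat.card (MulAction.fixedBy (Ω i) a) ≡ Nat.card (Ω i) [MOD p])
    (hne : ¬ (∑ i, ε i * (Nat.card (Ω i) : ℤ)) ≡ ∑ i, ε i [ZMOD p]) :
    ∃ Ψ : A → ℂ, WitA p M S A hA.1 Ψ := by
  refine witA_of_orb_eps_val hM hinj hA Ω ε hT hO (fun θ hθ => ?_) hval hne
  obtain ⟨i, -, hi⟩ := Finset.exists_ne_zero_of_sum_ne_zero hθ
  exact hcyc i θ (right_ne_zero_of_mul hi)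

end Cfsg.Agent.H145.CY
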